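import Cfsg.Prelude.Def_RootSubgroups
import Cfsg.Agent.Lib.Involution.Basic
import Cfsg.Agent.Lib.Involution.BaerSuzuki
import Cfsg.Agent.Lib.LocalChar.Core

/-!
Root involutions: members with the same odd partners ("twins").
-/

set_option autoImplicit false

namespace Cfsg.Agent.Lib.RootInvol

open Cfsg.Agent.Lib.Involution

variable {G : Type*} [Group G] {D : Set G}

/-- distinct elements whose product has odd order -/
def OddPair (x y : G) : Prop := x ≠ y ∧ Odd (orderOf (x * y))

/-- the same members of `D` form odd pairs with `x` and with `y` -/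
def Twin (D : Set G) (x y : G) : Prop := ∀ z ∈ D, OddPair x z ↔ OddPair y z

omit [Group G] in
theorem mem_of_eq {D : Set G} {x y : G} (h : x = y) (hx : x ∈ D) : y ∈ D := h ▸ hx

theorem Twin.refl (x : G) : Twin D x x := fun _ _ => Iff.rfl
theorem Twin.symm {x y : G} (h : Twin D x y) : Twin D y x := fun z hz => (h z hz).symm
theorem Twin.trans {x y w : G} (h : Twin D x y) (h' : Twin D y w) : Twin D x w :=
  fun z hz => (h z hz).trans (h' z hz)

section
variable (hD : IsRootInvolutionSet D)
include hD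

theorem d_sq {x : G} (hx : x ∈ D) : x * x = 1 := mul_self (hD.orderOf_eq x hx)

theorem d_inv {x : G} (hx : x ∈ D) : x⁻¹ = x := inv_self (hD.orderOf_eq x hx)

theorem d_conj {x s : G} (hx : x ∈ D) (hs : s ∈ D) : s * x * s ∈ D := by
  have := hD.conj_mem x hx s
  rwa [d_inv hD hs] at this

omit hD in
theorem OddPair.conj {x y : G} (h : OddPair x y) (g : G) : OddPair (g * x * g⁻¹) (g * y * g⁻¹) := by
  refine ⟨fun e => h.1 (by simpa using e), ?_⟩
  rw [show g * x * g⁻¹ * (g * y * g⁻¹) = g * (x * y) * g⁻¹ by group, orderOf_conj]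
  exact h.2

theorem OddPair.symm' {x y : G} (hx : x ∈ D) (hy : y ∈ D) (h : OddPair x y) : OddPair y x := by
  refine ⟨h.1.symm, ?_⟩
  have e : y * x = (x * y)⁻¹ := by rw [mul_inv_rev, d_inv hD hx, d_inv hD hy]
  rw [e, orderOf_inv]
  exact h.2

theorem oddPair_not_commute {x y : G} (hx : x ∈ D) (hy : y ∈ D) (h : OddPair x y) : ¬ Commute x y := by
  intro hc
  have h2 : (x * y) * (x * y) = 1 := by
    rw [hc.eq, mul_assoc, ← mul_assoc x y x, hc.eq, mul_assoc, d_sq hD hx, mul_one, d_sq hD hy]
  have h3 := eq_one_of_mul_self_of_odd h.2 h2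
  exact h.1 (by rw [eq_inv_of_mul_eq_one_left h3, d_inv hD hy])

theorem four_case {x y : G} (hx : x ∈ D) (hy : y ∈ D) (h1 : ¬ Commute x y) (h2 : ¬ OddPair x y) :
    orderOf (x * y) = 4 ∧ (x * y) ^ 2 ∈ D ∧ Commute (y * x * y) x ∧ Commute (x * y * x) y := by
  have hne : x ≠ y := fun e => h1 (e ▸ Commute.refl x)
  obtain h | h | h := hD.pair x hx y hy
  · exact absurd h h1
  · exact absurd ⟨hne, h⟩ h2
  have sx := d_sq hD hx
  have sy := d_sq hD hy
  have h4 : (x * y) ^ 4 = 1 := by rw [← h.1]; exact pow_orderOf_eq_one _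
  have e : (x * y) ^ 2 = ((x * y) ^ 2)⁻¹ := eq_inv_of_mul_eq_one_left (by rw [← pow_add]; exact h4)
  simp only [pow_two, mul_inv_rev, d_inv hD hx, d_inv hD hy] at e
  simp only [mul_assoc] at e
  refine ⟨h.1, h.2, ?_, ?_⟩
  · show y * x * y * x = x * (y * x * y)
    simp only [mul_assoc]
    exact e.symm
  · show x * y * x * y = y * (x * y * x)
    simp only [mul_assoc]
    exact e

theorem sq_eq {x y : G} (hx : x ∈ D) (hy : y ∈ D) (h1 : ¬ Commute x y) (h2 : ¬ OddPair x y) :
    x * (y * x * y) ∈ D ∧ (x * y * x) * y ∈ D ∧ x * (y * x * y) = (x * y * x) * y := by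
  have h := (four_case hD hx hy h1 h2).2.1
  rw [pow_two] at h
  refine ⟨?_, ?_, ?_⟩ <;> simpa only [mul_assoc] using h

/-- a member commuting with `a` is never odd with `b` when `a`, `b`, `a * b` lie in `D` -/
theorem not_odd_of_commute {a b z : G} (ha : a ∈ D) (hb : b ∈ D) (hab : Commute a b) (habD : a * b ∈ D)
    (hz : z ∈ D) (h : Commute z a) : ¬ OddPair z b := by
  intro ho
  have hodd : Odd (orderOf (z * b)) := ho.2
  have hcom : Commute a (z * b) := h.symm.mul_right hab
  have hord : orderOf (z * (a * b)) = 2 * orderOf (z * b) := by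
    rw [show z * (a * b) = a * (z * b) by rw [← mul_assoc, h.eq, mul_assoc],
      hcom.orderOf_mul_eq_mul_orderOf_of_coprime (by rw [hD.orderOf_eq a ha]; exact Nat.coprime_two_left.2 hodd),
      hD.orderOf_eq a ha]
  have h1 : orderOf (z * b) ≠ 1 := by
    intro e
    rw [orderOf_eq_one_iff] at e
    exact ho.1 (by rw [eq_inv_of_mul_eq_one_left e, d_inv hD hb])
  rcases hD.pair z hz _ habD with hh | hh | hh
  · have h2 : (z * (a * b)) ^ 2 = 1 := by
      rw [pow_two]; nth_rw 2 [hh]
      rw [← mul_assoc, mul_assoc z (a * b) (a * b), d_sq hD habD, mul_one, d_sq hD hz]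
    have := orderOf_dvd_of_pow_eq_one h2
    rw [hord] at this
    have := Nat.le_of_dvd (by norm_num) this
    obtain ⟨k, hk⟩ := hodd
    omega
  · rw [hord, Nat.odd_mul] at hh
    exact (by decide : ¬ Odd 2) hh.1
  · obtain ⟨k, hk⟩ := hodd
    omega

/-- odd with neither of `a`, `b` implies not odd with `a * b` -/
theorem not_odd_mul {a b z : G} (ha : a ∈ D) (hb : b ∈ D) (hab : Commute a b) (habD : a * b ∈ D)
    (hz : z ∈ D) (h1 : ¬ OddPair z a) (h2 : ¬ OddPair z b) : ¬ OddPair z (a * b) := by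
  intro ho
  have sa := d_sq hD ha
  have sb := d_sq hD hb
  have hcomm : Commute a (a * b) := (Commute.refl a).mul_right hab
  have hprod : a * (a * b) ∈ D := by rwa [← mul_assoc, sa, one_mul]
  have hcommb : Commute b (a * b) := hab.symm.mul_right (Commute.refl b)
  have hprodb : b * (a * b) ∈ D := by rwa [hcommb.eq, mul_assoc, sb, mul_one]
  have nza : ¬ Commute z a := fun h => not_odd_of_commute hD ha habD hcomm hprod hz h ho
  have nzb : ¬ Commute z b := fun h => not_odd_of_commute hD hb habD hcommb hprodb hz h ho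
  have hA : Commute (a * z * a) z := (four_case hD hz ha nza h1).2.2.1
  have hB : Commute (b * z * b) z := (four_case hD hz hb nzb h2).2.2.1
  have hB' : Commute (b * z * b) ((a * b) * z * (a * b)) := by
    have h := Commute.map hA (MulAut.conj (a * b)).toMonoidHom
    simp only [MulEquiv.coe_toMonoidHom, MulAut.conj_apply, d_inv hD habD] at h
    rwa [show a * b * (a * z * a) * (a * b) = b * z * b by
      calc a * b * (a * z * a) * (a * b) = (a * b * a) * z * (a * a) * b := by group
        _ = b * z * b := by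
          rw [sa, mul_one, hab.eq, mul_assoc b a a, sa, mul_one]] at h
  have hsq : Commute (b * z * b) ((z * (a * b)) ^ 2) := by
    rw [show (z * (a * b)) ^ 2 = z * ((a * b) * z * (a * b)) by rw [pow_two]; group]
    exact hB.mul_right hB'
  obtain ⟨k, hk⟩ := ho.2
  have h4 : ((z * (a * b)) ^ 2) ^ (k + 1) = z * (a * b) := by
    rw [← pow_mul, show 2 * (k + 1) = orderOf (z * (a * b)) + 1 by omega, pow_succ, pow_orderOf_eq_one, one_mul]
  have h5 : Commute (b * z * b) (z * (a * b)) := h4 ▸ hsq.pow_right _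
  have h6 : Commute (b * z * b) (a * b) := by
    have := hB.mul_right h5
    rwa [← mul_assoc, d_sq hD hz, one_mul] at this
  have h7 := Commute.map h6 (MulAut.conj b).toMonoidHom
  simp only [MulEquiv.coe_toMonoidHom, MulAut.conj_apply, d_inv hD hb] at h7
  rw [show b * (b * z * b) * b = (b * b) * z * (b * b) by group, sb, one_mul, mul_one,
    hcommb.eq, mul_assoc (a * b) b b, sb, mul_one] at h7
  exact oddPair_not_commute hD hz habD ho h7

theorem Twin.conj {x y : G} (h : Twin D x y) (g : G) : Twin D (g * x * g⁻¹) (g * y * g⁻¹) := by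
  intro z hz
  have hz' : g⁻¹ * z * g ∈ D := by simpa using hD.conj_mem z hz g⁻¹
  have key : ∀ u : G, OddPair (g * u * g⁻¹) z ↔ OddPair u (g⁻¹ * z * g) := by
    intro u
    constructor
    · intro hh; have := hh.conj g⁻¹; simpa [mul_assoc] using this
    · intro hh; have := hh.conj g; simpa [mul_assoc] using this
  rw [key, key]
  exact h _ hz'

theorem Twin.conj_mem' {x y s : G} (h : Twin D x y) (hs : s ∈ D) : Twin D (s * x * s) (s * y * s) := by
  have := h.conj hD s
  rwa [d_inv hD hs] at this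

theorem twin_not_odd {x y : G} (hy : y ∈ D) (h : Twin D x y) : ¬ OddPair x y :=
  fun ho => ((h y hy).1 ho).1 rfl

theorem isConj_of_connected (hc : IsConnectedSet (OddAdj D) D) {a b : G} (ha : a ∈ D) (hb : b ∈ D) :
    ∃ g : G, g * a * g⁻¹ = b := by
  have h := hc a ha b hb
  clear hb
  induction h with
  | refl => exact ⟨1, by simp⟩
  | @tail u v _ e ih =>
    obtain ⟨g, hg⟩ := ih
    obtain ⟨k, hk⟩ := conj_of_odd (hD.orderOf_eq u e.1) (hD.orderOf_eq v e.2.1) e.2.2.2
    refine ⟨(u * v) ^ k * g, ?_⟩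
    rw [show (u * v) ^ k * g * a * ((u * v) ^ k * g)⁻¹ = (u * v) ^ k * (g * a * g⁻¹) * ((u * v) ^ k)⁻¹ by group,
      hg, hk]

variable [Finite G] (hc : IsConnectedSet (OddAdj D) D)
include hc

theorem twin_mul {a b : G} (ha : a ∈ D) (hb : b ∈ D) (hab : Commute a b) (habD : a * b ∈ D)
    (h : Twin D a b) : Twin D (a * b) a := by
  let A : G → Set G := fun x => {z | z ∈ D ∧ OddPair x z}
  have hsub : A (a * b) ⊆ A a := by
    rintro z ⟨hz, ho⟩
    refine ⟨hz, ?_⟩
    by_contra hn
    refine not_odd_mul hD ha hb hab habD hz ?_ ?_ (ho.symm' hD habD hz)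
    · exact fun h' => hn (h'.symm' hD hz ha)
    · exact fun h' => hn ((h z hz).2 (h'.symm' hD hz hb))
  obtain ⟨g, hg⟩ := isConj_of_connected hD hc ha habD
  have himg : A (a * b) = (fun z => g * z * g⁻¹) '' A a := by
    ext z
    constructor
    · rintro ⟨hz, ho⟩
      refine ⟨g⁻¹ * z * g, ⟨by simpa using hD.conj_mem z hz g⁻¹, ?_⟩, by group⟩
      have := ho.conj g⁻¹
      rw [← hg] at this
      simpa [mul_assoc] using this
    · rintro ⟨w, ⟨hw, ho⟩, rfl⟩
      exact ⟨hD.conj_mem w hw g, hg ▸ ho.conj g⟩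
  have heq : A (a * b) = A a := by
    refine Set.eq_of_subset_of_ncard_le hsub ?_ (Set.toFinite _)
    rw [himg, Set.ncard_image_of_injective _ (fun u v e => by simpa using e)]
  intro z hz
  have := Set.ext_iff.1 heq z
  exact ⟨fun ho => (this.1 ⟨hz, ho⟩).2, fun ho => (this.2 ⟨hz, ho⟩).2⟩

/-- twins commute -/
theorem twin_commute {d e : G} (hd : d ∈ D) (he : e ∈ D) (h : Twin D d e) : Commute d e := by
  haveI : Fact (Nat.Prime 2) := ⟨Nat.prime_two⟩
  set T : Set G := {t | t ∈ D ∧ Twin D d t} with hT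
  have hdT : d ∈ T := ⟨hd, .refl d⟩
  have hpair : ∀ u ∈ T, ∀ v ∈ T, ¬ OddPair u v := fun u hu v hv =>
    twin_not_odd hD hv.1 (hu.2.symm.trans hv.2)
  have hpow : ∀ u ∈ T, ∀ v ∈ T, ∃ k, orderOf (u * v) = 2 ^ k := by
    intro u hu v hv
    by_cases hcm : Commute u v
    · have h2 : (u * v) ^ (2 ^ 1) = 1 := by
        rw [pow_one, hcm.mul_pow, pow_two, pow_two, d_sq hD hu.1, d_sq hD hv.1, one_mul]
      obtain ⟨k, -, hk⟩ := (Nat.dvd_prime_pow Nat.prime_two).1 (orderOf_dvd_of_pow_eq_one h2)
      exact ⟨k, hk⟩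
    · exact ⟨2, by rw [(four_case hD hu.1 hv.1 hcm (hpair u hu v hv)).1]; norm_num⟩
  have hconj : ∀ u ∈ T, ∀ v ∈ T, u * v * u⁻¹ ∈ T := by
    intro u hu v hv
    refine ⟨hD.conj_mem v hv.1 u, hu.2.trans ?_⟩
    have := (hu.2.symm.trans hv.2).conj hD u
    rwa [mul_inv_cancel_right] at this
  have hinvT : ∀ x ∈ Subgroup.closure T, ∀ v ∈ T, x * v * x⁻¹ ∈ T := by
    intro x hx
    induction hx using Subgroup.closure_induction'' with
    | mem u hu => exact fun v hv => hconj u hu v hv
    | inv_mem u hu => intro v hv; rw [d_inv hD hu.1]; exact hconj u hu v hv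
    | one => intro v hv; simpa using hv
    | mul x y _ _ ihx ihy =>
      intro v hv
      have := ihx _ (ihy v hv)
      rwa [show x * (y * v * y⁻¹) * x⁻¹ = x * y * v * (x * y)⁻¹ by group] at this
  set U := Subgroup.closure T with hU
  have hgen : Subgroup.closure ((fun u : U => (u : G)) ⁻¹' T) = ⊤ := Subgroup.closure_closure_coe_preimage
  have hUp : IsPGroup 2 U := by
    have hle : (⊤ : Subgroup U) ≤ Cfsg.pCore 2 U := by
      rw [← hgen, Subgroup.closure_le]
      intro w hw
      obtain ⟨N, hN, hNp, hwN⟩ := baerSuzuki (p := 2) (Subgroup.zpowers w) (fun g => by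
        have ow : orderOf w = 2 := by rw [← Subgroup.orderOf_coe]; exact hD.orderOf_eq _ hw.1
        have hv : ((g * w * g⁻¹ : U) : G) ∈ T := hinvT _ g.2 _ hw
        have ov : orderOf (g * w * g⁻¹) = 2 := by rw [orderOf_conj]; exact ow
        obtain ⟨k, hk⟩ := hpow _ hw _ hv
        rw [← Subgroup.coe_mul, Subgroup.orderOf_coe] at hk
        rw [MonoidHom.map_zpowers, Subgroup.zpowers_eq_closure, Subgroup.zpowers_eq_closure, ← Subgroup.closure_union,
          show (MulAut.conj g).toMonoidHom w = g * w * g⁻¹ from rfl, Set.singleton_union]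
        exact isPGroup_two_closure_pair ow ov hk)
      exact Cfsg.Agent.Lib.LocalChar.le_pCore hN hNp (hwN (Subgroup.mem_zpowers w))
    exact ((Cfsg.Agent.Lib.LocalChar.pCore_isPGroup).to_le hle).of_equiv Subgroup.topEquiv
  haveI : Group.IsNilpotent U := hUp.isNilpotent
  have key : ∀ n, ∀ t : U, (t : G) ∈ T → t ∈ Subgroup.upperCentralSeries U n →
      ∀ u ∈ T, ∀ v ∈ T, Commute u v := by
    intro n
    induction n with
    | zero =>
      intro t ht h0
      rw [Subgroup.upperCentralSeries_zero, Subgroup.mem_bot] at h0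
      rw [h0] at ht
      exact absurd rfl (ne_one (hD.orderOf_eq _ ht.1))
    | succ n ih =>
      intro t ht hn
      by_cases hall : ∀ v ∈ T, Commute (t : G) v
      · intro u hu v hv
        obtain ⟨g, hg⟩ := isConj_of_connected hD hc ht.1 hu.1
        have hv' : g⁻¹ * v * g ∈ T := by
          refine ⟨by simpa using hD.conj_mem v hv.1 g⁻¹, ht.2.trans ?_⟩
          have := (hu.2.symm.trans hv.2).conj hD g⁻¹
          rw [← hg] at this
          simpa [mul_assoc] using this
        have := Commute.map (hall _ hv') (MulAut.conj g).toMonoidHom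
        simp only [MulEquiv.coe_toMonoidHom, MulAut.conj_apply] at this
        rwa [hg, show g * (g⁻¹ * v * g) * g⁻¹ = v by group] at this
      · push Not at hall
        obtain ⟨x, hx, hnc⟩ := hall
        obtain ⟨-, -, hcm, -⟩ := four_case hD ht.1 hx.1 hnc (hpair _ ht _ hx)
        have hcD := (sq_eq hD ht.1 hx.1 hnc (hpair _ ht _ hx)).1
        have htw : Twin D (t : G) (x * t * x) := by
          refine (ht.2.symm.trans hx.2).trans ?_
          have := (hx.2.symm.trans ht.2).conj_mem' hD hx.1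
          rwa [mul_assoc x x x, d_sq hD hx.1, mul_one] at this
        have hc' : (t : G) * (x * t * x) ∈ T :=
          ⟨hcD, ht.2.trans (twin_mul hD hc ht.1 (d_conj hD ht.1 hx.1) hcm.symm hcD htw).symm⟩
        refine ih (t * ⟨x, Subgroup.subset_closure hx⟩ * t⁻¹ * (⟨x, Subgroup.subset_closure hx⟩ : U)⁻¹) ?_
          (Subgroup.mem_upperCentralSeries_succ_iff.1 hn _)
        simp only [Subgroup.coe_mul, Subgroup.coe_inv]
        rw [d_inv hD ht.1, d_inv hD hx.1]
        simpa only [mul_assoc] using hc'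
  obtain ⟨n, hn⟩ := Group.IsNilpotent.nilpotent U
  exact key n ⟨d, Subgroup.subset_closure hdT⟩ hdT (hn ▸ Subgroup.mem_top _) d hdT e ⟨he, h⟩

/-- if each of `t`, `u` fixes the twins of the other, they commute -/
theorem commute_of_fix {t u : G} (ht : t ∈ D) (hu : u ∈ D) (h1 : Twin D (u * t * u) t)
    (h2 : Twin D (t * u * t) u) : Commute t u := by
  by_contra hn
  have hne : t ≠ u := fun e => hn (e ▸ Commute.refl t)
  by_cases ho : OddPair t u
  · have h3 : OddPair t (u * t * u) := by
      refine ⟨fun e => hn ?_, ?_⟩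
      · show t * u = u * t
        conv_lhs => rw [e]
        rw [mul_assoc, d_sq hD hu, mul_one]
      · rw [show t * (u * t * u) = (t * u) ^ 2 by rw [pow_two]; group]
        exact ho.2.of_dvd_nat (orderOf_pow_dvd 2)
    exact twin_not_odd hD (d_conj hD ht hu) h1.symm h3
  · obtain ⟨-, -, c1, c2⟩ := four_case hD ht hu hn ho
    obtain ⟨m1, m2, m3⟩ := sq_eq hD ht hu hn ho
    have e1 := twin_mul hD hc ht (d_conj hD ht hu) c1.symm m1 h1.symm
    have e2 := twin_mul hD hc (d_conj hD hu ht) hu c2 m2 h2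
    rw [m3] at e1
    exact hn (twin_commute hD hc ht hu ((e1.symm.trans e2).trans h2))

/-- the key lemma: if `b` fixes `c` and some `z` is odd with `c` but not with `b`, then `b` commutes with the twins of `c` -/
theorem commute_twin {c d b z : G} (hcD : c ∈ D) (hdD : d ∈ D) (htw : Twin D c d) (hbD : b ∈ D) (hcb : Commute c b)
    (hcbD : c * b ∈ D) (hzD : z ∈ D) (hcz : OddPair c z) (hbz : ¬ OddPair b z) : Commute b d := by
  have hdc : Commute c d := twin_commute hD hc hcD hdD htw
  have sc := d_sq hD hcD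
  have ic := d_inv hD hcD
  have sb := d_sq hD hbD
  set r := c * z with hr
  set n := orderOf r with hn
  have hnodd : Odd n := hcz.2
  have hrn : r ^ n = 1 := pow_orderOf_eq_one r
  have hcr : ∀ i : ℕ, c * r ^ i * c = (r ^ i)⁻¹ := by
    intro i
    calc c * r ^ i * c = c * r ^ i * c⁻¹ := by rw [ic]
      _ = (c * r * c⁻¹) ^ i := conj_pow.symm
      _ = (r⁻¹) ^ i := by
        congr 1
        exact conj_prod (hD.orderOf_eq c hcD) (hD.orderOf_eq z hzD)
      _ = (r ^ i)⁻¹ := inv_pow r i
  have hrc : ∀ i : ℕ, r ^ i * c = c * (r ^ i)⁻¹ := by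
    intro i; rw [← hcr i, ← mul_assoc, ← mul_assoc, sc, one_mul]
  have hrc' : ∀ i : ℕ, (r ^ i)⁻¹ * c = c * r ^ i := by
    intro i; rw [← hcr i, mul_assoc, sc, mul_one]
  obtain ⟨h0, hh0⟩ := hnodd
  let s : ℕ → G := fun i => c * r ^ i
  have hs : ∀ i, s i ∈ D := by
    intro i
    have e : (r ^ (i * (h0 + 1)))⁻¹ * c * r ^ (i * (h0 + 1)) = s i := by
      rw [hrc', mul_assoc, ← pow_add,
        show i * (h0 + 1) + i * (h0 + 1) = n * i + i by rw [hh0]; ring, pow_add, pow_mul, hrn, one_pow, one_mul]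
    have := hD.conj_mem c hcD (r ^ (i * (h0 + 1)))⁻¹
    rw [inv_inv, e] at this
    exact this
  let bb : ℕ → G := fun i => (r ^ i)⁻¹ * b * r ^ i
  have hsbs : ∀ i, s i * b * s i = bb i := by
    intro i
    show c * r ^ i * b * (c * r ^ i) = (r ^ i)⁻¹ * b * r ^ i
    rw [← hcr i, ← mul_assoc, mul_assoc (c * r ^ i) b c, ← hcb.eq, ← mul_assoc]
  have hbbD : ∀ i, bb i ∈ D := fun i => hsbs i ▸ d_conj hD hbD (hs i)
  have hbb0 : bb 0 = b := by simp [bb]
  -- consequences of `¬ OddPair b (s i)`
  have hPc : ∀ i, ¬ OddPair b (s i) → Commute (bb i) b ∧ (bb i ≠ b → b * bb i ∈ D) := by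
    intro i hi
    rw [← hsbs i]
    by_cases hcm : Commute b (s i)
    · have : s i * b * s i = b := by rw [← hcm.eq, mul_assoc, d_sq hD (hs i), mul_one]
      rw [this]
      exact ⟨Commute.refl b, fun h => absurd rfl h⟩
    · exact ⟨(four_case hD hbD (hs i) hcm hi).2.2.1, fun _ => (sq_eq hD hbD (hs i) hcm hi).1⟩
  have hP : ∀ j, ¬ OddPair b (s j) := by
    intro j
    induction j using Nat.strong_induction_on with
    | _ j ih =>
    rcases Nat.eq_zero_or_pos j with rfl | hj0
    · intro h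
      exact oddPair_not_commute hD hbD (hs 0) h (by simpa [s] using hcb.symm)
    rcases Nat.even_or_odd j with ⟨i, hi⟩ | ⟨i, hi⟩
    · intro h
      have hcmm := (hPc i (ih i (by omega))).1
      have hbcD : b * c ∈ D := hcb.eq ▸ hcbD
      refine not_odd_of_commute hD hbD hcD hcb.symm hbcD (hbbD i) hcmm ?_
      have h' := (h.conj c).conj (r ^ i)⁻¹
      have e1 : (r ^ i)⁻¹ * (c * b * c⁻¹) * (r ^ i)⁻¹⁻¹ = bb i := by
        rw [hcb.eq, mul_inv_cancel_right, inv_inv]
      have e2 : (r ^ i)⁻¹ * (c * s j * c⁻¹) * (r ^ i)⁻¹⁻¹ = c := by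
        show (r ^ i)⁻¹ * (c * (c * r ^ j) * c⁻¹) * (r ^ i)⁻¹⁻¹ = c
        rw [← mul_assoc c c, sc, one_mul, ic, inv_inv, hi, pow_add]
        calc (r ^ i)⁻¹ * (r ^ i * r ^ i * c) * r ^ i = r ^ i * c * r ^ i := by group
          _ = c := by rw [hrc, inv_mul_cancel_right]
      rwa [e1, e2] at h'
    rcases Nat.eq_zero_or_pos i with rfl | hi0
    · rw [show s j = z by simp [s, hi, hr, ← mul_assoc, sc]]
      exact hbz
    intro h
    have hs1 : s 1 = z := by simp [s, hr, ← mul_assoc, sc]
    have hb1 : ¬ OddPair b (s 1) := ih 1 (by omega)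
    -- `bb (i+1)` is odd with `z`
    have hbu : OddPair (bb (i + 1)) z := by
      have h' := (h.conj c).conj (r ^ (i + 1))⁻¹
      have e1 : (r ^ (i + 1))⁻¹ * (c * b * c⁻¹) * (r ^ (i + 1))⁻¹⁻¹ = bb (i + 1) := by
        rw [hcb.eq, mul_inv_cancel_right, inv_inv]
      have e2 : (r ^ (i + 1))⁻¹ * (c * s j * c⁻¹) * (r ^ (i + 1))⁻¹⁻¹ = z := by
        show (r ^ (i + 1))⁻¹ * (c * (c * r ^ j) * c⁻¹) * (r ^ (i + 1))⁻¹⁻¹ = z
        rw [← mul_assoc c c, sc, one_mul, ic, inv_inv, hi,
          show z = c * r by rw [hr, ← mul_assoc, sc, one_mul], show 2 * i + 1 = i + (i + 1) by ring,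
          pow_add r i (i + 1), (Commute.pow_pow_self r i (i + 1)).eq]
        calc (r ^ (i + 1))⁻¹ * (r ^ (i + 1) * r ^ i * c) * r ^ (i + 1) = r ^ i * c * r ^ (i + 1) := by group
          _ = c * r := by rw [hrc, pow_succ, mul_assoc, inv_mul_cancel_left]
      rwa [e1, e2] at h'
    have hu := ih (i + 1) (by omega)
    have hi' := ih i (by omega)
    have hbz' : ¬ OddPair z b := fun h' => hbz (h'.symm' hD hzD hbD)
    by_cases hzb : Commute b z
    · -- then `z` commutes with `b`, and so cannot be odd with `c`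
      exact not_odd_of_commute hD hbD hcD hcb.symm (hcb.eq ▸ hcbD) hzD hzb.symm (hcz.symm' hD hcD hzD)
    obtain ⟨c1, g1⟩ := hPc 1 hb1
    obtain ⟨cu, gu⟩ := hPc (i + 1) hu
    have ne1 : bb 1 ≠ b := by
      rw [← hsbs 1, hs1]
      intro e
      apply hzb
      show b * z = z * b
      conv_lhs => rw [← e]
      rw [mul_assoc, d_sq hD hzD, mul_one]
    by_cases eu : bb (i + 1) = b
    · exact hbz (eu ▸ hbu)
    by_cases eu1 : bb (i + 1) = bb 1
    · have := hbu.conj z
      rw [eu1, ← hsbs 1, hs1, d_inv hD hzD,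
        show z * (z * b * z) * z = (z * z) * b * (z * z) by group, d_sq hD hzD, one_mul, mul_one, one_mul] at this
      exact hbz this
    -- `bb 1` and `bb (i + 1)` commute with product in `D`
    have hconj1 : ∀ x : G, r⁻¹ * x * r = r⁻¹ * x * r⁻¹⁻¹ := fun x => by rw [inv_inv]
    have e1 : bb 1 = r⁻¹ * b * r := by simp [bb]
    have eu' : bb (i + 1) = r⁻¹ * bb i * r := by
      show (r ^ (i + 1))⁻¹ * b * r ^ (i + 1) = r⁻¹ * ((r ^ i)⁻¹ * b * r ^ i) * r
      rw [pow_succ]; group
    obtain ⟨ci, gi⟩ := hPc i hi'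
    have c1u : Commute (bb 1) (bb (i + 1)) := by
      have := Commute.map ci.symm (MulAut.conj r⁻¹).toMonoidHom
      simp only [MulEquiv.coe_toMonoidHom, MulAut.conj_apply, inv_inv] at this
      rwa [← e1, ← eu'] at this
    have g1u : bb 1 * bb (i + 1) ∈ D := by
      have := hD.conj_mem _ (gi (fun e => eu1 (by rw [eu', e, e1]))) r⁻¹
      rw [inv_inv] at this
      rwa [e1, eu', show r⁻¹ * b * r * (r⁻¹ * bb i * r) = r⁻¹ * (b * bb i) * r by group]
    have hgcom : Commute z (b * bb 1) := by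
      rw [← hsbs 1, hs1]
      show z * (b * (z * b * z)) = b * (z * b * z) * z
      rw [show b * (z * b * z) = (z * b * z) * b by rw [← hs1, hsbs 1]; exact c1.eq.symm]
      calc z * (z * b * z * b) = (z * z) * (b * z * b) := by group
        _ = b * z * b := by rw [d_sq hD hzD, one_mul]
        _ = b * z * b * (z * z) := by rw [d_sq hD hzD, mul_one]
        _ = b * (z * b * z) * z := by group
        _ = z * b * z * b * z := by
          rw [show b * (z * b * z) = (z * b * z) * b by rw [← hs1, hsbs 1]; exact c1.eq.symm]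
    have hg := g1 ne1
    have hgu := gu eu
    have hgg : Commute (b * bb 1) (b * bb (i + 1)) :=
      ((Commute.refl b).mul_right cu.symm).mul_left (c1.mul_right c1u)
    have hprod : b * bb 1 * (b * bb (i + 1)) ∈ D := by
      rwa [show b * bb 1 * (b * bb (i + 1)) = bb 1 * bb (i + 1) by
        rw [show b * bb 1 = bb 1 * b from c1.eq.symm, mul_assoc (bb 1), ← mul_assoc b, sb, one_mul]]
    have hz1 : ¬ OddPair z (b * bb (i + 1)) := not_odd_of_commute hD hg hgu hgg hprod hzD hgcom
    have hfin := not_odd_mul hD hbD hgu ((Commute.refl b).mul_right cu.symm)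
      (by rw [← mul_assoc, sb, one_mul]; exact hbbD _) hzD hbz' hz1
    rw [← mul_assoc, sb, one_mul] at hfin
    exact hfin (hbu.symm' hD (hbbD _) hzD)
  have hcomm0 : ∀ i, Commute (bb i) b := fun i => (hPc i (hP i)).1
  have hcomm : ∀ l m, Commute (bb l) (bb m) := by
    have key : ∀ l m, l ≤ m → Commute (bb m) (bb l) := by
      intro l m hlm
      have := Commute.map (hcomm0 (m - l)) (MulAut.conj (r ^ l)⁻¹).toMonoidHom
      simp only [MulEquiv.coe_toMonoidHom, MulAut.conj_apply, inv_inv] at this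
      have e : (r ^ l)⁻¹ * bb (m - l) * r ^ l = bb m := by
        show (r ^ l)⁻¹ * ((r ^ (m - l))⁻¹ * b * r ^ (m - l)) * r ^ l = (r ^ m)⁻¹ * b * r ^ m
        conv_rhs => rw [← Nat.sub_add_cancel hlm, pow_add]
        group
      rwa [e] at this
    intro l m
    rcases le_total l m with h | h
    · exact (key l m h).symm
    · exact key m l h
  let m : ℕ → ℕ := fun i => (n - 1) * i
  have hm : ∀ i, r ^ m i = (r ^ i)⁻¹ := by
    intro i
    refine eq_inv_of_mul_eq_one_left ?_
    rw [← pow_add, show m i + i = n * i by show (n - 1) * i + i = n * i; rw [hh0]; simp; ring,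
      pow_mul, hrn, one_pow]
  -- `d` commutes with each pair product
  have hk : ∀ i, Commute d (bb i * bb (m i)) := by
    intro i
    have em : bb (m i) = c * bb i * c := by
      show (r ^ m i)⁻¹ * b * r ^ m i = c * ((r ^ i)⁻¹ * b * r ^ i) * c
      rw [hm, inv_inv]
      calc r ^ i * b * (r ^ i)⁻¹ = r ^ i * (c * c * b) * (r ^ i)⁻¹ := by rw [sc, one_mul]
        _ = r ^ i * (c * b * c) * (r ^ i)⁻¹ := by
          rw [show c * b * c = c * c * b by rw [mul_assoc c b c, ← hcb.eq, ← mul_assoc]]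
        _ = r ^ i * c * b * (c * (r ^ i)⁻¹) := by group
        _ = c * (r ^ i)⁻¹ * b * (r ^ i * c) := by rw [hrc]
        _ = _ := by group
    by_cases hcm : Commute b (s i)
    · have e : bb i = b := by rw [← hsbs, ← hcm.eq, mul_assoc, d_sq hD (hs i), mul_one]
      rw [em, e, hcb.eq, mul_assoc b c c, sc, mul_one, sb]
      exact Commute.one_right d
    obtain ⟨-, -, cbg, -⟩ := four_case hD hbD (hs i) hcm (hP i)
    set g := b * bb i with hg
    have hgD : g ∈ D := by rw [hg, ← hsbs]; exact (sq_eq hD hbD (hs i) hcm (hP i)).1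
    have hgb : Commute g b := (Commute.refl b).mul_left (hcomm0 i)
    have ek : bb i * bb (m i) = g * c * g * c := by
      rw [em, show bb i = b * g by rw [hg, ← mul_assoc, sb, one_mul]]
      calc b * g * (c * (b * g) * c) = b * g * (c * b) * g * c := by group
        _ = b * (g * b) * c * g * c := by rw [hcb.eq]; group
        _ = g * c * g * c := by rw [hgb.eq, ← mul_assoc b b g, sb, one_mul]
    rw [ek]
    by_cases hgc : Commute g c
    · rw [hgc.eq, mul_assoc c g g, d_sq hD hgD, mul_one, sc]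
      exact Commute.one_right d
    have hgco : ¬ OddPair g c := not_odd_of_commute hD hbD hcD hcb.symm (hcb.eq ▸ hcbD) hgD hgb
    obtain ⟨-, -, -, hcc'⟩ := four_case hD hgD hcD hgc hgco
    refine Commute.mul_right ?_ hdc.symm
    have hgd : ¬ OddPair g d := fun h => hgco (((htw g hgD).2 (h.symm' hD hgD hdD)).symm' hD hcD hgD)
    have hdd' : Commute (g * d * g) d := by
      by_cases h : Commute g d
      · rw [h.eq, mul_assoc, d_sq hD hgD, mul_one]
      · exact (four_case hD hgD hdD h hgd).2.2.2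
    set c' := g * c * g with hc'
    have hc'D : c' ∈ D := d_conj hD hcD hgD
    refine commute_of_fix hD hc hdD hc'D ?_ ?_
    · have h := (htw.conj_mem' hD hc'D).symm
      rw [hcc'.eq, mul_assoc c c' c', d_sq hD hc'D, mul_one] at h
      exact h.trans htw
    · have h1 : Twin D c' (g * d * g) := htw.conj_mem' hD hgD
      have h := h1.conj_mem' hD hdD
      rw [← hdd'.eq, mul_assoc (g * d * g) d d, d_sq hD hdD, mul_one] at h
      exact h.trans h1.symm
  -- `b * r` has odd order
  have hxz : Odd (orderOf (b * r)) := by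
    have hbcD : b * c ∈ D := hcb.eq ▸ hcbD
    have hO : OddPair z (b * c) := by
      by_contra h
      have hbz' : ¬ OddPair z b := fun h' => hbz (h'.symm' hD hzD hbD)
      refine not_odd_mul hD hbD hbcD ((Commute.refl b).mul_right hcb.symm) ?_ hzD hbz' h ?_
      · rwa [← mul_assoc, sb, one_mul]
      · rw [← mul_assoc, sb, one_mul]; exact hcz.symm' hD hcD hzD
    have := (hO.symm' hD hzD hbcD).2
    rwa [hr, ← mul_assoc]
  -- the symmetric products
  let E : ℕ → G := fun i => Nat.rec b (fun k e => bb (k + 1) * e * bb (m (k + 1))) i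
  have hE : ∀ i, E i = (r ^ i)⁻¹ * (b * r) ^ (2 * i + 1) * (r ^ (i + 1))⁻¹ := by
    intro i
    induction i with
    | zero => simp [E]
    | succ k ih =>
      show bb (k + 1) * E k * bb (m (k + 1)) = _
      rw [ih, show bb (m (k + 1)) = r ^ (k + 1) * b * (r ^ (k + 1))⁻¹ by
        show (r ^ m (k + 1))⁻¹ * b * r ^ m (k + 1) = _; rw [hm, inv_inv]]
      show (r ^ (k + 1))⁻¹ * b * r ^ (k + 1) * _ * _ = _
      rw [show 2 * (k + 1) + 1 = 1 + (2 * k + 1) + 1 by ring, pow_add (b * r) (1 + (2 * k + 1)), pow_add (b * r) 1,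
        pow_one, pow_succ r (k + 1), show r ^ (k + 1) = r ^ k * r from pow_succ r k]
      generalize (b * r) ^ (2 * k + 1) = M
      group
  have hEcomm : ∀ i, (∀ l, Commute (E i) (bb l)) ∧ E i * E i = 1 ∧ Commute d (b * E i) := by
    intro i
    induction i with
    | zero => exact ⟨fun l => (hcomm0 l).symm, sb, by show Commute d (b * b); rw [sb]; exact Commute.one_right d⟩
    | succ k ih =>
      obtain ⟨i1, i2, i3⟩ := ih
      have e : E (k + 1) = E k * (bb (k + 1) * bb (m (k + 1))) := by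
        show bb (k + 1) * E k * bb (m (k + 1)) = _
        rw [← (i1 (k + 1)).eq, mul_assoc]
      rw [e]
      refine ⟨fun l => (i1 l).mul_left ((hcomm _ l).mul_left (hcomm _ l)), ?_, ?_⟩
      · have cq : Commute (E k) (bb (k + 1) * bb (m (k + 1))) := (i1 _).mul_right (i1 _)
        rw [← pow_two, cq.mul_pow, pow_two, i2, one_mul, pow_two]
        generalize hA : bb (k + 1) = A
        generalize hB : bb (m (k + 1)) = B
        have sA : A * A = 1 := hA ▸ d_sq hD (hbbD _)
        have sB : B * B = 1 := hB ▸ d_sq hD (hbbD _)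
        have cAB : Commute A B := hA ▸ hB ▸ hcomm _ _
        rw [cAB.symm.mul_mul_mul_comm, sA, sB, one_mul]
      · rw [← mul_assoc]; exact i3.mul_right (hk (k + 1))
  obtain ⟨-, hsq, hfinal⟩ := hEcomm h0
  have hpow : (r ^ (h0 + 1))⁻¹ = r ^ h0 := by
    refine inv_eq_of_mul_eq_one_right ?_
    rw [← pow_add, show h0 + 1 + h0 = n by omega, hrn]
  rw [hE, hpow, show 2 * h0 + 1 = n from hh0.symm] at hsq hfinal
  have hone : (b * r) ^ n = 1 := by
    refine eq_one_of_mul_self_of_odd (hxz.of_dvd_nat (orderOf_pow_dvd n)) ?_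
    calc (b * r) ^ n * (b * r) ^ n
        = r ^ h0 * ((r ^ h0)⁻¹ * (b * r) ^ n * r ^ h0 * ((r ^ h0)⁻¹ * (b * r) ^ n * r ^ h0)) * (r ^ h0)⁻¹ := by group
      _ = 1 := by rw [hsq, mul_one, mul_inv_cancel]
  rw [hone, mul_one, inv_mul_cancel, mul_one] at hfinal
  exact hfinal.symm

/-- if `x` fixes the twins of `d` then it is not in the order four case with `d` -/
theorem commute_of_twin_fix {d x : G} (hd : d ∈ D) (hx : x ∈ D) (ho : ¬ OddPair d x)
    (h : Twin D (x * d * x) d) : Commute d x := by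
  by_contra hn
  have sx := d_sq hD hx
  have sd := d_sq hD hd
  obtain ⟨-, -, c1, c2⟩ := four_case hD hd hx hn ho
  obtain ⟨m1, m2, m3⟩ := sq_eq hD hd hx hn ho
  have hx' : d * x * d ∈ D := d_conj hD hx hd
  set cc := d * (x * d * x) with hcc
  have hcd : Twin D cc d := twin_mul hD hc hd (d_conj hD hd hx) c1.symm m1 h.symm
  have e0 : cc = x * (d * x * d) := by rw [m3]; exact c2.eq
  have hcom : Commute x (d * x * d) := c2.symm
  have hnc : ¬ Commute (d * x * d) d := fun hh => hn (by
    have := Commute.map hh (MulAut.conj d).toMonoidHom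
    simp only [MulEquiv.coe_toMonoidHom, MulAut.conj_apply, d_inv hD hd] at this
    rw [show d * (d * x * d) * d = (d * d) * x * (d * d) by group, sd, one_mul, mul_one, one_mul] at this
    exact this.symm)
  have hx'x : (d * x * d) * x ∈ D := m2
  have hcx : Commute cc (d * x * d) := by
    rw [e0]; exact hcom.mul_left (Commute.refl _)
  have hcx0 : Commute cc x := by
    rw [e0]; exact (Commute.refl x).mul_left hcom.symm
  by_cases hall : ∀ z ∈ D, OddPair x z ↔ OddPair (d * x * d) z
  · have := twin_mul hD hc hx hx' hcom (e0 ▸ m1) hall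
    rw [← e0] at this
    exact hn (twin_commute hD hc hd hx (hcd.symm.trans this))
  push Not at hall
  obtain ⟨z, hz, hz'⟩ := hall
  have eA : cc * (d * x * d) = x := by rw [e0, mul_assoc, d_sq hD hx', mul_one]
  have eB : cc * x = d * x * d := by
    rw [e0, hcom.eq, mul_assoc, sx, mul_one]
  rcases hz' with ⟨h1, h2⟩ | ⟨h1, h2⟩
  · have hcz : OddPair cc z := by
      by_contra hcz
      refine not_odd_mul hD m1 hx' hcx (eA.symm ▸ hx) hz (fun e => hcz (e.symm' hD hz m1))
        (fun e => h2 (e.symm' hD hz hx')) ?_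
      rw [eA]; exact h1.symm' hD hx hz
    exact hnc (commute_twin hD hc m1 hd hcd hx' hcx (eA.symm ▸ hx) hz hcz h2)
  · have hcz : OddPair cc z := by
      by_contra hcz
      refine not_odd_mul hD m1 hx hcx0 (eB.symm ▸ hx') hz (fun e => hcz (e.symm' hD hz m1))
        (fun e => h1 (e.symm' hD hz hx)) ?_
      rw [eB]; exact h2.symm' hD hx' hz
    exact hn (commute_twin hD hc m1 hd hcd hx hcx0 (eB.symm ▸ hx') hz hcz h1).symm

theorem twin_imp_sameCommuting {d e : G} (hd : d ∈ D) (he : e ∈ D) (h : Twin D d e) {x : G} (hx : x ∈ D)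
    (hxe : Commute x e) : Commute x d := by
  refine (commute_of_twin_fix hD hc hd hx (fun ho => ?_) ?_).symm
  · exact oddPair_not_commute hD he hx ((h x hx).1 ho) hxe.symm
  · have := h.conj_mem' hD hx
    rw [hxe.eq, mul_assoc e x x, d_sq hD hx, mul_one] at this
    exact this.trans h.symm

end

section
variable (hD : IsRootInvolutionSet D)
include hD

theorem sameCommuting_imp {d e : G} (hd : d ∈ D) (he : e ∈ D) (hde : ∀ x ∈ D, Commute x d ↔ Commute x e)
    {x : G} (hx : x ∈ D) (ho : OddPair d x) : OddPair e x := by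
  by_contra hn
  have nd := oddPair_not_commute hD hd hx ho
  have ne : ¬ Commute e x := fun h => nd ((hde x hx).2 h.symm).symm
  obtain ⟨-, -, c1, c2⟩ := four_case hD he hx ne hn
  obtain ⟨m1, m2, m3⟩ := sq_eq hD he hx ne hn
  have hex : Commute d e := (hde d hd).1 (Commute.refl d)
  set cc := e * (x * e * x) with hcc
  have hce : Commute cc e := ((Commute.refl e).mul_left c1)
  have hcx : Commute cc x := by rw [m3]; exact c2.mul_left (Commute.refl x)
  have hcd : Commute cc d := (hde _ m1).2 hce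
  have hcom : Commute (d * x) cc := hcd.symm.mul_left hcx.symm
  have hord : orderOf (d * x * cc) = orderOf (d * x) * 2 := by
    rw [hcom.orderOf_mul_eq_mul_orderOf_of_coprime
      (by rw [hD.orderOf_eq _ m1]; exact Nat.coprime_two_right.2 ho.2), hD.orderOf_eq _ m1]
  have e2 : e * (d * x) * e⁻¹ = d * x * cc := by
    rw [d_inv hD he, mul_assoc d x cc, m3]
    calc e * (d * x) * e = (e * d) * x * e := by group
      _ = d * (e * x * e) := by rw [← hex.eq]; group
      _ = d * (e * x * e * (x * x)) := by rw [d_sq hD hx, mul_one]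
      _ = d * ((e * x * e * x) * x) := by group
      _ = d * (x * (e * x * e * x)) := by
        rw [show e * x * e * x * x = x * (e * x * e * x) from (c2.mul_left (Commute.refl x)).eq]
  rw [← e2, orderOf_conj] at hord
  have hodd := ho.2
  obtain ⟨k, hk⟩ := hodd
  omega

end

end Cfsg.Agent.Lib.RootInvol
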